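import Cfsg.Agent.H640.Bridge

/-!
# S4884, own characteristic, `q = 2` : odd degrees from a coprime field automorphism (helper377)

`S` a `m`-group (`m` prime, not dividing `|G|`) acting on the finite group `G`, `ι : D →* G` the fixed points
(`H593.GlaubermanP.Setup`).

* `transfer`  : every `β ∈ Irr(D)` has a Glauberman correspondent `χ ∈ Irr(G)`, `χ ∘ ι ≡ ± β` modulo `m`;
* `inner_congr` : `⟨f, χ⟩ ≡ ± ⟨f', β⟩` modulo `m` for integral `S`-invariant functions `f`, `f ∘ ι ≡ f'`;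
* `odd_of_transfer` : if `⟨f, χ⟩ ≠ 0` implies `p ∤ χ(1)` then `m ∤ ⟨f', β⟩` implies `p ∤ β(1)`, given the
  arithmetic condition on the degrees.
-/

set_option autoImplicit false
set_option linter.unusedSectionVars false
set_option linter.unusedVariables false

namespace Cfsg.Agent.H377.GL

open Cfsg
open scoped ComplexConjugate
open Cfsg.Agent.H593.GlaubermanP
open Cfsg.Agent.Blocks.Local
open Cfsg.Agent.Characters.Core

variable {m : ℕ} [Fact m.Prime] {G D S : Type*} [Group G] [Fintype G] [Group D] [Fintype D] [Group S]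
  [MulDistribMulAction S G] {ι : D →* G}

theorem isIntegral_irr {H : Type*} [Group H] [Finite H] (β : IrrCharacter H) (c : H) :
    IsIntegral ℤ ((β : H → ℂ) c) := by
  obtain ⟨k, ρ, -, hρ⟩ := β.2
  rw [← hρ]
  exact Cfsg.Agent.Characters.AverageRoots.isIntegral_character ρ c

/-- **the Glauberman correspondent** -/
theorem transfer (h : Setup S ι m) (β : IrrCharacter D) :
    ∃ (χ : IrrCharacter G) (e : ℤ), Inv S (χ : G → ℂ) ∧ (e = 1 ∨ e = -1) ∧
      ∀ c, ∃ d : ℂ, IsIntegral ℤ d ∧ (χ : G → ℂ) (ι c) = e * (β : D → ℂ) c + m * d := by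
  obtain ⟨M, hM⟩ := Cfsg.Agent.Blocks.ExistsModular.exists_isPModular (Fact.out : m.Prime)
  obtain ⟨χ, hχ, hb⟩ := exists_chi h hM β
  obtain ⟨β', e, he, he2, hd⟩ := Cfsg.Agent.H640.glau_decomp h χ hχ
  have hme : ¬ m ∣ e := by
    intro h1
    rw [(ZMod.natCast_eq_zero_iff _ _).2 h1] at he2
    norm_num at he2
  have hb' : ¬ MemLocalIdeal M (Cfsg.Agent.H593.GlaubermanP.b ι χ β') := fun h1 => hme ((good_iff h hM he).1 h1)
  have hββ : β' = β := unique_beta h hM hχ hb' hb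
  subst hββ
  have h3 : ((e : ℕ) : ZMod m) = 1 ∨ ((e : ℕ) : ZMod m) = -1 := sq_eq_one_iff.mp he2
  have h4 : ∃ ε : ℤ, (ε = 1 ∨ ε = -1) ∧ (m : ℤ) ∣ (e : ℤ) - ε := by
    rcases h3 with h3 | h3
    · refine ⟨1, Or.inl rfl, (ZMod.intCast_zmod_eq_zero_iff_dvd _ _).1 ?_⟩
      push_cast
      rw [h3, sub_self]
    · refine ⟨-1, Or.inr rfl, (ZMod.intCast_zmod_eq_zero_iff_dvd _ _).1 ?_⟩
      push_cast
      rw [h3, sub_self]
  obtain ⟨ε, hε, k, hk⟩ := h4
  refine ⟨χ, ε, hχ, hε, fun c => ?_⟩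
  obtain ⟨d, hd1, hd2⟩ := hd c
  refine ⟨k * (β' : D → ℂ) c + d, ((isIntegral_algebraMap (R := ℤ) (A := ℂ) (x := k)).mul (isIntegral_irr β' c)).add hd1, ?_⟩
  have h5 : (e : ℂ) = ε + m * k := by
    have h6 : (e : ℤ) = ε + m * k := by linarith
    exact_mod_cast h6
  rw [hd2, h5]
  ring

/-- an integer which is `m` times an algebraic integer is divisible by `m` -/
theorem dvd_of_integral {a : ℤ} {d : ℂ} (hd : IsIntegral ℤ d) (h : (a : ℂ) = m * d) : (m : ℤ) ∣ a := by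
  have hm0 : (m : ℂ) ≠ 0 := Nat.cast_ne_zero.2 (Fact.out : m.Prime).ne_zero
  have h1 : d = ((a / m : ℚ) : ℂ) := by
    push_cast
    rw [h]
    field_simp
  rw [h1] at hd
  have h2 : IsIntegral ℤ (a / m : ℚ) := by
    have h3 : IsIntegral ℤ (algebraMap ℚ ℂ (a / m : ℚ)) := hd
    exact (isIntegral_algebraMap_iff (algebraMap ℚ ℂ).injective).1 h3
  obtain ⟨b, hb⟩ := IsIntegrallyClosed.isIntegral_iff.1 h2
  refine ⟨b, ?_⟩
  have h4 : (a : ℚ) = m * b := by
    have hm1 : (m : ℚ) ≠ 0 := Nat.cast_ne_zero.2 (Fact.out : m.Prime).ne_zero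
    have h5 : (b : ℚ) = a / m := hb
    rw [h5]
    field_simp
  exact_mod_cast h4

/-- sums of invariant integral functions -/
theorem sum_congr (h : Setup S ι m) (F : G → ℂ) (hF : ∀ (s : S) (g : G), F (s • g) = F g)
    (hi : ∀ g, IsIntegral ℤ (F g)) : ∃ d : ℂ, IsIntegral ℤ d ∧ ∑ g, F g = ∑ c, F (ι c) + m * d := by
  classical
  obtain ⟨a, ha⟩ := Cfsg.Agent.Blocks.OrbitSum.sum_eq_sum_fixed_add_smul (p := m) h.pgroup
    (fun g : G => (⟨F g, hi g⟩ : integralClosure ℤ ℂ)) (fun u g => Subtype.ext (hF u g))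
  refine ⟨a, a.2, ?_⟩
  have h1 := congrArg (fun z : integralClosure ℤ ℂ => (z : ℂ)) ha
  simp only [nsmul_eq_mul] at h1
  push_cast at h1
  rw [h1, h.filter_eq, Finset.sum_image (fun x _ y _ hxy => h.inj hxy)]

theorem card_congr (h : Setup S ι m) : (m : ℤ) ∣ (Nat.card G : ℤ) - Nat.card D := by
  obtain ⟨d, hd, h1⟩ := sum_congr h (fun _ => 1) (fun _ _ => rfl) (fun _ => isIntegral_one)
  refine dvd_of_integral hd ?_
  simp only [Finset.sum_const, Finset.card_univ, nsmul_eq_mul, mul_one] at h1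
  rw [Nat.card_eq_fintype_card, Nat.card_eq_fintype_card]
  push_cast
  rw [h1]
  ring

/-- **the multiplicities** -/
theorem inner_congr (h : Setup S ι m) {f : G → ℤ} {f' : D → ℤ} (hf : ∀ (s : S) (g : G), f (s • g) = f g)
    (hff : ∀ c, (m : ℤ) ∣ f (ι c) - f' c) {χ : IrrCharacter G} {β : IrrCharacter D} {e : ℤ}
    (hχ : Inv S (χ : G → ℂ))
    (hβ : ∀ c, ∃ d : ℂ, IsIntegral ℤ d ∧ (χ : G → ℂ) (ι c) = e * (β : D → ℂ) c + m * d)
    {n n' : ℤ} (hn : classInner (fun g => (f g : ℂ)) (χ : G → ℂ) = n)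
    (hn' : classInner (fun c => (f' c : ℂ)) (β : D → ℂ) = n') : (m : ℤ) ∣ n - e * n' := by
  have hcG : (Nat.card G : ℂ) ≠ 0 := card_ne_zero_complex
  have hcD : (Nat.card D : ℂ) ≠ 0 := card_ne_zero_complex
  rw [Cfsg.Agent.Characters.Core.classInner_def] at hn hn'
  have h1 : ∑ g, (f g : ℂ) * conj ((χ : G → ℂ) g) = Nat.card G * n := by
    rw [← hn, ← mul_assoc, mul_inv_cancel₀ hcG, one_mul]
  have h2 : ∑ c, (f' c : ℂ) * conj ((β : D → ℂ) c) = Nat.card D * n' := by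
    rw [← hn', ← mul_assoc, mul_inv_cancel₀ hcD, one_mul]
  have hconj : ∀ z : ℂ, IsIntegral ℤ z → IsIntegral ℤ (conj z) := fun z hz =>
    hz.map ((starRingEnd ℂ).toIntAlgHom)
  obtain ⟨d, hd, h3⟩ := sum_congr h (fun g => (f g : ℂ) * conj ((χ : G → ℂ) g))
    (fun s g => by rw [hf, hχ]) (fun g => (isIntegral_algebraMap (R := ℤ) (A := ℂ) (x := f g)).mul
      (hconj _ (isIntegral_irr χ g)))
  choose k hk using hff
  choose d' hd' h4 using hβ
  obtain ⟨j, hj⟩ := card_congr h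
  have h5 : ∀ c, (f (ι c) : ℂ) * conj ((χ : G → ℂ) (ι c)) = e * ((f' c : ℂ) * conj ((β : D → ℂ) c)) +
      m * ((f (ι c) : ℂ) * conj (d' c) + k c * e * conj ((β : D → ℂ) c)) := by
    intro c
    have h6 : (f (ι c) : ℂ) = f' c + m * k c := by
      have h7 : f (ι c) = f' c + m * k c := by linarith [hk c]
      rw [h7]
      push_cast
      ring
    rw [h4 c]
    simp only [map_add, map_mul, map_intCast, map_natCast]
    rw [h6]
    ring
  have h6 : ((Nat.card D : ℤ) * (n - e * n') : ℤ) = (m : ℂ) * (-(j * n) + d + ∑ c, ((f (ι c) : ℂ) * conj (d' c) +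
      k c * e * conj ((β : D → ℂ) c))) := by
    have h7 : (Nat.card G : ℂ) = Nat.card D + m * j := by
      have h8 : (Nat.card G : ℤ) = Nat.card D + m * j := by linarith
      exact_mod_cast h8
    rw [h1, Finset.sum_congr rfl fun c _ => h5 c, Finset.sum_add_distrib, ← Finset.mul_sum, ← Finset.mul_sum,
      h2, h7] at h3
    push_cast
    linear_combination h3
  have h8 : (m : ℤ) ∣ (Nat.card D : ℤ) * (n - e * n') := by
    refine dvd_of_integral ?_ h6
    refine (((isIntegral_algebraMap (R := ℤ) (A := ℂ) (x := j)).mul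
      (isIntegral_algebraMap (R := ℤ) (A := ℂ) (x := n))).neg.add hd).add (IsIntegral.sum _ fun c _ => ?_)
    exact ((isIntegral_algebraMap (R := ℤ) (A := ℂ) (x := f (ι c))).mul (hconj _ (hd' c))).add
      (((isIntegral_algebraMap (R := ℤ) (A := ℂ) (x := k c)).mul
        (isIntegral_algebraMap (R := ℤ) (A := ℂ) (x := e))).mul (hconj _ (isIntegral_irr β c)))
  rcases (Nat.prime_iff_prime_int.1 (Fact.out : m.Prime)).dvd_or_dvd h8 with h9 | h9
  · exact absurd (Int.natCast_dvd_natCast.1 h9) h.ndvd'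
  · exact h9

/-- **the degrees** -/
theorem deg_congr {χ : IrrCharacter G} {β : IrrCharacter D} {e : ℤ}
    (hβ : ∀ c, ∃ d : ℂ, IsIntegral ℤ d ∧ (χ : G → ℂ) (ι c) = e * (β : D → ℂ) c + m * d) :
    (m : ℤ) ∣ charDegree (χ : G → ℂ) - e * charDegree (β : D → ℂ) := by
  obtain ⟨d, hd, h1⟩ := hβ 1
  refine dvd_of_integral hd ?_
  rw [map_one, Cfsg.Agent.Blocks.Basic.irr_one_eq_charDegree χ.2,
    Cfsg.Agent.Blocks.Basic.irr_one_eq_charDegree β.2] at h1
  push_cast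
  rw [h1]
  ring

/-- **the transfer of the parity of the degrees** -/
theorem odd_of_transfer (h : Setup S ι m) {p : ℕ} {f : G → ℤ} {f' : D → ℤ}
    (hf : ∀ (s : S) (g : G), f (s • g) = f g) (hff : ∀ c, (m : ℤ) ∣ f (ι c) - f' c)
    (n : IrrCharacter G → ℤ) (hn : ∀ χ : IrrCharacter G, classInner (fun g => (f g : ℂ)) (χ : G → ℂ) = n χ)
    (n' : IrrCharacter D → ℤ)
    (hn' : ∀ β : IrrCharacter D, classInner (fun c => (f' c : ℂ)) (β : D → ℂ) = n' β)
    (hodd : ∀ χ : IrrCharacter G, n χ ≠ 0 → ¬ p ∣ charDegree (χ : G → ℂ))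
    (hA : ∀ a b : ℕ, a ∣ Nat.card G → ¬ p ∣ a → b ∣ Nat.card D →
      ((m : ℤ) ∣ a - b ∨ (m : ℤ) ∣ a + b) → ¬ p ∣ b)
    (β : IrrCharacter D) (hβ : ¬ (m : ℤ) ∣ n' β) : ¬ p ∣ charDegree (β : D → ℂ) := by
  obtain ⟨χ, e, hχ, he, hd⟩ := transfer h β
  have h1 := inner_congr h hf hff hχ hd (hn χ) (hn' β)
  have h2 : n χ ≠ 0 := by
    intro h0
    apply hβ
    rw [h0, zero_sub, dvd_neg] at h1
    rcases he with rfl | rfl
    · rwa [one_mul] at h1
    · rwa [neg_one_mul, dvd_neg] at h1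
  have h3 := deg_congr hd
  refine hA _ _ (charDegree_dvd χ.2) (hodd χ h2) (charDegree_dvd β.2) ?_
  rcases he with rfl | rfl
  · left
    rwa [one_mul] at h3
  · right
    rwa [neg_one_mul, sub_neg_eq_add] at h3

end Cfsg.Agent.H377.GL
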